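import Cfsg.Agent.L.Schur2

/-!
Schur multiplier III (lead): projective representations. `L.proj_lift` (lifting to Schur covers),
`L.inj_of_proj_lift` (a stem extension lifting all projective representations is a Schur cover).
-/

open Subgroup Cfsg
open scoped commutatorElement

namespace L

universe u v w

theorem pgl_isCE (n : ℕ) : IsCE (QuotientGroup.mk' (center (GL (Fin n) ℂ))) :=
  ⟨QuotientGroup.mk'_surjective _, by rw [QuotientGroup.ker_mk']⟩

theorem scalar_inj (n : Type*) [Fintype n] [DecidableEq n] [Nonempty n] :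
    Function.Injective (Matrix.GeneralLinearGroup.scalar n : ℂˣ →* GL n ℂ) := by
  intro a b h
  exact Units.ext (Matrix.scalar_inj.1 (congrArg Units.val h))

theorem proj_lift {Q Γ : Type*} [Group Q] [Finite Q] [Group Γ]
    {σ : Γ →* Q} (hσ : IsStemExtension σ) (hc : Nat.card σ.ker = Nat.card (SM Q)) (n : ℕ)
    (γ : Q →* (GL (Fin n) ℂ ⧸ center (GL (Fin n) ℂ))) :
    ∃ ρ : Γ →* GL (Fin n) ℂ, (QuotientGroup.mk' (center (GL (Fin n) ℂ))).comp ρ = γ.comp σ := by
  rcases n with _ | n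
  · haveI : Subsingleton (GL (Fin 0) ℂ ⧸ center (GL (Fin 0) ℂ)) :=
      (QuotientGroup.mk'_surjective _).subsingleton
    exact ⟨1, MonoidHom.ext fun _ => Subsingleton.elim _ _⟩
  · exact lift_to_cover hσ hc (pgl_isCE _) _ (scalar_inj _)
      (by rw [QuotientGroup.ker_mk', Matrix.GeneralLinearGroup.center_eq_range_scalar]) γ

theorem inj_of_proj_lift {Q Γ : Type*} [Group Q] [Finite Q] [Group Γ]
    {σ : Γ →* Q} (hσ : IsStemExtension σ)
    (hlift : ∀ (n : ℕ) (γ : Q →* (GL (Fin n) ℂ ⧸ center (GL (Fin n) ℂ))),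
      ∃ ρ : Γ →* GL (Fin n) ℂ, (QuotientGroup.mk' (center (GL (Fin n) ℂ))).comp ρ = γ.comp σ) :
    Nonempty (SM Q ≃* σ.ker) := by
  obtain ⟨η, hη⟩ := exists_lift (canP Q) (stem_isCE hσ) (MonoidHom.id _)
  have hη' : ∀ x, σ (η x) = uπ Q x := fun x => DFunLike.congr_fun hη x
  obtain ⟨φ, h1, h2⟩ := exists_mult_surj (uπ_isCE Q).surj hσ.2.1 η hη
  have h3 : Function.Injective φ := by
    rw [injective_iff_map_eq_one]
    intro m hm
    by_contra hne
    obtain ⟨χ0, hχ0⟩ := exists_char_ne_one (C := SM Q) (a := m) hne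
    letI : CommGroup (uπ Q).ker := commGroupOfLeCenter _ (hπ_ker_le _)
    obtain ⟨χ, hχ⟩ := exists_ext_complex (S := SM Q) (W := (uπ Q).ker) (inclusion inf_le_left)
      (inclusion_injective _) χ0
    obtain ⟨ρ0, hρ0⟩ := exists_monomial (uπ_isCE Q) χ
    obtain ⟨γ, hγ⟩ := exists_desc (uπ Q) (uπ_isCE Q).surj
      ((QuotientGroup.mk' (center _)).comp ρ0) (fun z hz => by
        rw [MonoidHom.mem_ker, MonoidHom.comp_apply, hρ0 ⟨z, hz⟩, QuotientGroup.mk'_apply,
          QuotientGroup.eq_one_iff, Matrix.GeneralLinearGroup.center_eq_range_scalar]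
        exact ⟨_, rfl⟩)
    obtain ⟨ρ, hρ⟩ := hlift _ γ
    have h4 := lifts_agree (pgl_isCE _).cent (ρ.comp η) ρ0 (MonoidHom.ext fun x => by
      have := DFunLike.congr_fun hρ (η x)
      simp only [MonoidHom.comp_apply] at this ⊢
      rw [this, hη', hγ]; rfl) m.2.2
    have h5 : η m = 1 := by rw [← h2, hm]; rfl
    rw [MonoidHom.comp_apply, h5, map_one, hρ0 ⟨m, m.2.1⟩, eq_comm] at h4
    haveI : Nonempty (Fin (Nat.card Q)) := ⟨⟨0, Nat.card_pos⟩⟩
    have h6 := (injective_iff_map_eq_one _).1 (scalar_inj _) _ h4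
    exact hχ0 ((hχ m).symm.trans h6)
  exact ⟨(MulEquiv.ofBijective φ ⟨h3, h1⟩).trans (MulEquiv.subgroupCongr (stem_mult hσ))⟩

end L
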