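import Cfsg.Agent.L.Schur4

/-! Dihedral groups: `L.dih_gen`, `L.dih_ker_card` (kernel of a stem extension of `D_{2n}` has order dividing `gcd(n,2)`). -/

open Subgroup Cfsg

namespace L

open DihedralGroup in
theorem dih_gen (n : ℕ) [NeZero n] : Subgroup.closure {(r 1 : DihedralGroup n), sr 0} = ⊤ := by
  rw [eq_top_iff]
  have h1 : ∀ i, (r i : DihedralGroup n) ∈ Subgroup.closure {(r 1 : DihedralGroup n), sr 0} := by
    intro i
    have : (r i : DihedralGroup n) = r 1 ^ i.val := by simp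
    rw [this]
    exact pow_mem (Subgroup.subset_closure (by simp)) _
  rintro (i | i) _
  · exact h1 i
  · have : (sr i : DihedralGroup n) = sr 0 * r i := by simp
    rw [this]
    exact mul_mem (Subgroup.subset_closure (by simp)) (h1 i)

theorem dih_ker_card (n : ℕ) [NeZero n] {Δ : Type*} [Group Δ] {τ : Δ →* DihedralGroup n}
    (hτ : IsStemExtension τ) : Nat.card τ.ker ∣ Nat.gcd n 2 := by
  have hn : 0 < n := Nat.pos_of_ne_zero (NeZero.ne n)
  have h := L.meta_card hτ _ _ (dih_gen n) n 2 (2 * n - 1) 0 two_pos (by omega)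
    DihedralGroup.r_one_pow_n (by simp [sq]) (by
      rw [mul_inv_eq_iff_eq_mul, DihedralGroup.r_one_pow, Nat.cast_sub (by omega)]
      simp)
  rw [orderOf_pow, DihedralGroup.orderOf_r_one, Nat.gcd_zero_left] at h
  have h2 : Nat.gcd n (2 * n - 1 - 1) = Nat.gcd n 2 := by
    apply Nat.dvd_antisymm
    · refine Nat.dvd_gcd (Nat.gcd_dvd_left _ _) ?_
      have h3 := Nat.dvd_sub (Dvd.dvd.mul_left (Nat.gcd_dvd_left n (2 * n - 1 - 1)) 2)
        (Nat.gcd_dvd_right n (2 * n - 1 - 1))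
      rwa [show 2 * n - (2 * n - 1 - 1) = 2 by omega] at h3
    · refine Nat.dvd_gcd (Nat.gcd_dvd_left _ _) ((Nat.gcd_dvd_right _ _).trans ⟨n - 1, by omega⟩)
  rw [h2] at h
  have h3 := h.trans (Nat.gcd_dvd_left _ _)
  obtain ⟨k, hk⟩ := Nat.gcd_dvd_left n 2
  have h4 : n / Nat.gcd n 2 = k := Nat.div_eq_of_eq_mul_right (Nat.gcd_pos_of_pos_left _ hn) hk
  rw [h4] at h3
  have hk0 : 0 < k := Nat.pos_of_ne_zero (by rintro rfl; omega)
  exact Nat.dvd_of_mul_dvd_mul_right hk0 (hk ▸ h3)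

end L
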