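import Cfsg.Agent.L.Schur2

/-!
Bilinear central extensions and the multiplier of a direct product.
-/

open Subgroup Cfsg
open scoped commutatorElement TensorProduct

namespace L

section BE
variable {G T : Type*} [Group G] [CommGroup T]

/-- central extension by a bimultiplicative cocycle -/
@[ext] structure BE (β : G →* G →* T) where
  g : G
  t : T

variable {β : G →* G →* T}

instance instMulBE : Mul (BE β) := ⟨fun x y => ⟨x.g * y.g, x.t * y.t * β x.g y.g⟩⟩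
instance instOneBE : One (BE β) := ⟨⟨1, 1⟩⟩
instance instInvBE : Inv (BE β) := ⟨fun x => ⟨x.g⁻¹, x.t⁻¹ * β x.g x.g⟩⟩

@[simp] theorem BE_mul_g (x y : BE β) : (x * y).g = x.g * y.g := rfl
@[simp] theorem BE_mul_t (x y : BE β) : (x * y).t = x.t * y.t * β x.g y.g := rfl
@[simp] theorem BE_one_g : (1 : BE β).g = 1 := rfl
@[simp] theorem BE_one_t : (1 : BE β).t = 1 := rfl
@[simp] theorem BE_inv_g (x : BE β) : (x⁻¹).g = x.g⁻¹ := rfl
@[simp] theorem BE_inv_t (x : BE β) : (x⁻¹).t = x.t⁻¹ * β x.g x.g := rfl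

instance instGroupBE : Group (BE β) := Group.ofLeftAxioms
  (fun x y z => by
    ext
    · simp [mul_assoc]
    · simp only [BE_mul_t, BE_mul_g, map_mul, MonoidHom.mul_apply]
      simp only [mul_assoc, mul_comm, mul_left_comm])
  (fun x => by ext <;> simp)
  (fun x => by
    ext
    · simp
    · simp only [BE_mul_t, BE_inv_t, BE_inv_g, map_inv, MonoidHom.inv_apply, BE_one_t]
      simp [mul_assoc, mul_comm, mul_left_comm])

instance instFiniteBE [Finite G] [Finite T] : Finite (BE β) :=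
  Finite.of_injective (fun x : BE β => (x.g, x.t)) (fun x y h => by
    simp only [Prod.mk.injEq] at h; exact BE.ext h.1 h.2)

/-- projection -/
def BEπ (β : G →* G →* T) : BE β →* G := ⟨⟨fun x => x.g, rfl⟩, fun _ _ => rfl⟩

@[simp] theorem BEπ_apply (x : BE β) : BEπ β x = x.g := rfl

theorem BE_comm (g h : G) (s t : T) (hc : g * h = h * g) :
    ⁅(⟨g, s⟩ : BE β), (⟨h, t⟩ : BE β)⁆ = ⟨1, β g h * (β h g)⁻¹⟩ := by
  rw [commutatorElement_def, mul_inv_eq_iff_eq_mul, mul_inv_eq_iff_eq_mul]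
  ext
  · simp [hc]
  · simp [mul_assoc, mul_comm, mul_left_comm]

/-- inclusion of `T` -/
def BEι (β : G →* G →* T) : T →* BE β :=
  ⟨⟨fun t => ⟨1, t⟩, rfl⟩, fun _ _ => by ext <;> simp⟩

end BE

section Tens
variable (Q₁ Q₂ : Type*) [Group Q₁] [Group Q₂]

/-- tensor product of the abelianizations -/
abbrev TT := Multiplicative (TensorProduct ℤ (Additive (Abelianization Q₁))
  (Additive (Abelianization Q₂)))

variable {Q₁ Q₂}

/-- pure tensor -/
def tp (a : Q₁) (b : Q₂) : TT Q₁ Q₂ :=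
  Multiplicative.ofAdd (Additive.ofMul (Abelianization.of a) ⊗ₜ[ℤ]
    Additive.ofMul (Abelianization.of b))

theorem tp_mul_left (a a' : Q₁) (b : Q₂) : tp (a * a') b = tp a b * tp a' b := by
  simp [tp, TensorProduct.add_tmul]

theorem tp_mul_right (a : Q₁) (b b' : Q₂) : tp a (b * b') = tp a b * tp a b' := by
  simp [tp, TensorProduct.tmul_add]

@[simp] theorem tp_one_left (b : Q₂) : tp (1 : Q₁) b = 1 := by simp [tp]
@[simp] theorem tp_one_right (a : Q₁) : tp a (1 : Q₂) = 1 := by simp [tp]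

theorem TT_ind (S : Subgroup (TT Q₁ Q₂)) (h : ∀ a b, tp a b ∈ S) (t : TT Q₁ Q₂) : t ∈ S := by
  obtain ⟨u, rfl⟩ := Multiplicative.ofAdd.surjective t
  induction u using TensorProduct.induction_on with
  | zero => exact S.one_mem
  | tmul x y =>
    obtain ⟨a, ha⟩ := QuotientGroup.mk_surjective (Additive.toMul x)
    obtain ⟨b, hb⟩ := QuotientGroup.mk_surjective (Additive.toMul y)
    have := h a b
    unfold tp at this
    have e1 : Additive.ofMul (Abelianization.of a) = x := by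
      rw [show Abelianization.of a = Additive.toMul x from ha]; rfl
    have e2 : Additive.ofMul (Abelianization.of b) = y := by
      rw [show Abelianization.of b = Additive.toMul y from hb]; rfl
    rwa [e1, e2] at this
  | add x y hx hy => rw [ofAdd_add]; exact S.mul_mem hx hy

theorem exists_TT_lift {Z : Type*} [CommGroup Z] (c : Q₁ → Q₂ → Z)
    (h1 : ∀ a a' b, c (a * a') b = c a b * c a' b)
    (h2 : ∀ a b b', c a (b * b') = c a b * c a b') :
    ∃ γ : TT Q₁ Q₂ →* Z, ∀ a b, γ (tp a b) = c a b := by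
  let c1 : Q₁ →* (Abelianization Q₂ →* Z) := MonoidHom.mk'
    (fun a => Abelianization.lift (MonoidHom.mk' (c a) (h2 a))) (fun a a' => by
      ext b; simp [h1])
  let c2 := Abelianization.lift c1
  let c3 : Additive (Abelianization Q₁) →+ Additive (Abelianization Q₂) →+ Additive Z :=
    AddMonoidHom.mk' (fun x => MonoidHom.toAdditive (c2 (Additive.toMul x))) (fun x y => by
      ext b; simp)
  let c4 := TensorProduct.liftAddHom (R := ℤ) c3 (fun r m n => by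
    rw [map_zsmul, map_zsmul]; rfl)
  refine ⟨AddMonoidHom.toMultiplicativeLeft c4, fun a b => ?_⟩
  simp [tp, c4, c3, c2, c1]

theorem tp_pow_left (a : Q₁) (b : Q₂) (n : ℕ) : tp (a ^ n) b = tp a b ^ n := by
  induction n with
  | zero => simp
  | succ n ih => rw [pow_succ, tp_mul_left, ih, pow_succ]

theorem tp_pow_right (a : Q₁) (b : Q₂) (n : ℕ) : tp a (b ^ n) = tp a b ^ n := by
  induction n with
  | zero => simp
  | succ n ih => rw [pow_succ, tp_mul_right, ih, pow_succ]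

instance instFiniteTT [Finite Q₁] [Finite Q₂] : Finite (TT Q₁ Q₂) := by
  have : Finite (Abelianization Q₁) := Finite.of_surjective _ (QuotientGroup.mk_surjective)
  have : Finite (Abelianization Q₂) := Finite.of_surjective _ (QuotientGroup.mk_surjective)
  have hfg : Group.FG (TT Q₁ Q₂) := by
    rw [Group.fg_iff]
    refine ⟨Set.range (fun p : Q₁ × Q₂ => tp p.1 p.2), ?_, Set.finite_range _⟩
    rw [eq_top_iff]
    exact fun t _ => TT_ind _ (fun a b => Subgroup.subset_closure (Set.mem_range_self (a, b))) t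
  apply CommGroup.finite_of_fg_torsion
  intro t
  have := TT_ind (powMonoidHom (α := TT Q₁ Q₂) (Nat.card Q₁)).ker (fun a b => by
    rw [MonoidHom.mem_ker, powMonoidHom_apply, ← tp_pow_left, pow_card_eq_one', tp_one_left]) t
  exact isOfFinOrder_iff_pow_eq_one.2 ⟨_, Nat.card_pos, this⟩

end Tens

section Prod
variable {Q₁ Q₂ : Type*} [Group Q₁] [Group Q₂]

theorem prod_lower {Γ₁ Γ₂ : Type*} [Group Γ₁] [Group Γ₂] {σ₁ : Γ₁ →* Q₁} {σ₂ : Γ₂ →* Q₂}
    (h₁ : IsStemExtension σ₁) (h₂ : IsStemExtension σ₂) :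
    ∃ β : (Γ₁ × Γ₂) →* (Γ₁ × Γ₂) →* TT Q₁ Q₂,
      IsStemExtension ((σ₁.prodMap σ₂).comp (BEπ β)) ∧
      Nonempty (((σ₁.prodMap σ₂).comp (BEπ β)).ker ≃* σ₁.ker × σ₂.ker × TT Q₁ Q₂) := by
  let β : (Γ₁ × Γ₂) →* (Γ₁ × Γ₂) →* TT Q₁ Q₂ := MonoidHom.mk'
    (fun g => MonoidHom.mk' (fun h => tp (σ₁ g.1) (σ₂ h.2)) (fun h h' => by
      simp [tp_mul_right])) (fun g g' => by ext <;> simp [tp_mul_left])
  have hβ : ∀ g h, β g h = tp (σ₁ g.1) (σ₂ h.2) := fun _ _ => rfl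
  have hk : ∀ x : BE β, x ∈ ((σ₁.prodMap σ₂).comp (BEπ β)).ker ↔ σ₁ x.g.1 = 1 ∧ σ₂ x.g.2 = 1 := by
    intro x; simp [MonoidHom.mem_ker, Prod.ext_iff]
  let i1 : Γ₁ →* BE β := MonoidHom.mk' (fun a => ⟨(a, 1), 1⟩) (fun a b => by
    ext <;> simp [hβ])
  let i2 : Γ₂ →* BE β := MonoidHom.mk' (fun a => ⟨(1, a), 1⟩) (fun a b => by
    ext <;> simp [hβ])
  refine ⟨β, ⟨?_, ?_, ?_⟩, ⟨?_⟩⟩
  · rintro ⟨q1, q2⟩
    obtain ⟨a, rfl⟩ := h₁.1 q1
    obtain ⟨b, rfl⟩ := h₂.1 q2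
    exact ⟨⟨(a, b), 1⟩, rfl⟩
  · intro x hx
    obtain ⟨e1, e2⟩ := (hk x).1 hx
    rw [mem_center_iff]
    intro y
    have c1 := mem_center_iff.1 (h₁.2.1 e1) y.g.1
    have c2 := mem_center_iff.1 (h₂.2.1 e2) y.g.2
    ext
    · simpa using c1
    · simpa using c2
    · simp [hβ, e1, e2, mul_comm]
  · intro x hx
    obtain ⟨e1, e2⟩ := (hk x).1 hx
    have : x = i1 x.g.1 * i2 x.g.2 * BEι β x.t := by
      ext <;> simp [i1, i2, BEι, hβ, e1]
    rw [this]
    refine mul_mem (mul_mem (map_mem_commutator _ (h₁.2.2 e1)) (map_mem_commutator _ (h₂.2.2 e2))) ?_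
    refine TT_ind ((commutator (BE β)).comap (BEι β)) (fun a b => ?_) _
    obtain ⟨a, rfl⟩ := h₁.1 a
    obtain ⟨b, rfl⟩ := h₂.1 b
    have := BE_comm (β := β) (a, 1) (1, b) 1 1 (by simp)
    have h3 := commutator_mem_commutator (mem_top (⟨(a, 1), 1⟩ : BE β)) (mem_top ⟨(1, b), 1⟩)
    rw [this] at h3
    simpa [hβ, BEι, commutator_def] using h3
  · exact
      { toFun := fun x => (⟨x.1.g.1, ((hk _).1 x.2).1⟩, ⟨x.1.g.2, ((hk _).1 x.2).2⟩, x.1.t)
        invFun := fun y => ⟨⟨(y.1, y.2.1), y.2.2⟩, (hk _).2 ⟨y.1.2, y.2.1.2⟩⟩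
        left_inv := fun x => rfl
        right_inv := fun y => rfl
        map_mul' := fun x y => by
          have := ((hk _).1 x.2).1
          ext <;> simp [hβ, this] }

theorem prod_upper {A B : Type*} [CommGroup A] [CommGroup B] (hA : HasSchurMultiplier Q₁ A)
    (hB : HasSchurMultiplier Q₂ B) {Δ : Type*} [Group Δ] {τ : Δ →* Q₁ × Q₂}
    (hτ : IsStemExtension τ) :
    ∃ f : A × B × TT Q₁ Q₂ → τ.ker, Function.Surjective f := by
  choose s hs using hτ.1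
  have hc := hτ.2.1
  let D1 : Subgroup Δ := ((MonoidHom.snd Q₁ Q₂).comp τ).ker
  let D2 : Subgroup Δ := ((MonoidHom.fst Q₁ Q₂).comp τ).ker
  let τ1 : D1 →* Q₁ := ((MonoidHom.fst Q₁ Q₂).comp τ).comp D1.subtype
  let τ2 : D2 →* Q₂ := ((MonoidHom.snd Q₁ Q₂).comp τ).comp D2.subtype
  have m1 : ∀ x, x ∈ D1 ↔ (τ x).2 = 1 := fun x => Iff.rfl
  have m2 : ∀ x, x ∈ D2 ↔ (τ x).1 = 1 := fun x => Iff.rfl
  have ce1 : IsCE τ1 := ⟨fun q => ⟨⟨s (q, 1), by simp [m1, hs]⟩, by simp [τ1, hs]⟩, fun x hx => by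
    have : τ x = 1 := Prod.ext hx x.2
    rw [mem_center_iff]; intro y; exact Subtype.ext (mem_center_iff.1 (hc this) y)⟩
  have ce2 : IsCE τ2 := ⟨fun q => ⟨⟨s (1, q), by simp [m2, hs]⟩, by simp [τ2, hs]⟩, fun x hx => by
    have : τ x = 1 := Prod.ext x.2 hx
    rw [mem_center_iff]; intro y; exact Subtype.ext (mem_center_iff.1 (hc this) y)⟩
  obtain ⟨φ1, hφ1⟩ := HasSchur_surj hA ce1
  obtain ⟨φ2, hφ2⟩ := HasSchur_surj hB ce2
  have hk : ∀ x y : Δ, (τ x).2 = 1 → (τ y).1 = 1 → ⁅x, y⁆ ∈ τ.ker := by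
    intro x y hx hy
    rw [MonoidHom.mem_ker, map_commutatorElement, commutatorElement_eq_one_iff_mul_comm]
    ext <;> simp [hx, hy]
  letI := commGroupOfLeCenter τ.ker hc
  obtain ⟨γ, hγ⟩ := exists_TT_lift (Z := τ.ker)
    (fun a b => ⟨⁅s (a, 1), s (1, b)⁆, hk _ _ (by simp [hs]) (by simp [hs])⟩)
    (fun a a' b => by
      apply Subtype.ext
      change ⁅s (a * a', 1), s (1, b)⁆ = ⁅s (a, 1), s (1, b)⁆ * ⁅s (a', 1), s (1, b)⁆
      rw [comm_eq_of_CE hc (a' := s (a, 1) * s (a', 1)) (b' := s (1, b)) (by simp [hs]) rfl]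
      have := mem_center_iff.1 (hc (hk (s (a', 1)) (s (1, b)) (by simp [hs]) (by simp [hs])))
      rw [this, commutatorElement_def _ (s (1, b)),
        show s (a, 1) * s (a', 1) * s (1, b) * (s (a, 1) * s (a', 1))⁻¹ * (s (1, b))⁻¹ =
          (s (a, 1) * ⁅s (a', 1), s (1, b)⁆) * (s (a, 1))⁻¹ * ⁅s (a, 1), s (1, b)⁆ by
            simp only [commutatorElement_def]; group, this]
      group)
    (fun a b b' => by
      apply Subtype.ext
      change ⁅s (a, 1), s (1, b * b')⁆ = ⁅s (a, 1), s (1, b)⁆ * ⁅s (a, 1), s (1, b')⁆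
      rw [comm_eq_of_CE hc (a' := s (a, 1)) (b' := s (1, b) * s (1, b')) rfl (by simp [hs])]
      have := mem_center_iff.1 (hc (hk (s (a, 1)) (s (1, b')) (by simp [hs]) (by simp [hs])))
      rw [commutatorElement_def _ (_ * _),
        show s (a, 1) * (s (1, b) * s (1, b')) * (s (a, 1))⁻¹ * (s (1, b) * s (1, b'))⁻¹ =
          ⁅s (a, 1), s (1, b)⁆ * ((s (1, b) * ⁅s (a, 1), s (1, b')⁆) * (s (1, b))⁻¹) by
            simp only [commutatorElement_def]; group, this]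
      group)
  let C : Subgroup Δ := γ.range.map τ.ker.subtype
  have hC : C ≤ τ.ker := map_subtype_le _
  haveI : C.Normal := normal_of_le_center (hC.trans hc)
  let ψ : D1 × D2 →* Δ ⧸ C := MonoidHom.noncommCoprod ((QuotientGroup.mk' C).comp D1.subtype)
    ((QuotientGroup.mk' C).comp D2.subtype) (fun x y => by
      rw [← commutatorElement_eq_one_iff_commute]
      change ⁅QuotientGroup.mk' C x, QuotientGroup.mk' C y⁆ = 1
      rw [← map_commutatorElement, ← MonoidHom.mem_ker, QuotientGroup.ker_mk']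
      refine ⟨_, ⟨tp (τ x).1 (τ y).2, rfl⟩, ?_⟩
      rw [hγ]
      exact comm_eq_of_CE hc (by rw [hs]; exact Prod.ext rfl x.2.symm)
        (by rw [hs]; exact Prod.ext y.2.symm rfl))
  have hψ : ∀ p : D1 × D2, ψ p = ((p.1 : Δ) * p.2 : Δ) := fun p => rfl
  have hψs : Function.Surjective ψ := by
    intro z
    obtain ⟨z, rfl⟩ := QuotientGroup.mk_surjective z
    refine ⟨(⟨s ((τ z).1, 1), by simp [m1, hs]⟩, ⟨(s ((τ z).1, 1))⁻¹ * z, by simp [m2, hs]⟩), ?_⟩
    rw [hψ]; simp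
  have kk1 : ∀ m : mult τ1, ((m : D1) : Δ) ∈ τ.ker := fun m => Prod.ext m.2.1 m.1.2
  have kk2 : ∀ m : mult τ2, ((m : D2) : Δ) ∈ τ.ker := fun m => Prod.ext m.1.2 m.2.1
  refine ⟨fun p => ⟨_, kk1 (φ1 p.1)⟩ * ⟨_, kk2 (φ2 p.2.1)⟩ * γ p.2.2, fun k => ?_⟩
  have h1 : ((k : Δ) : Δ ⧸ C) ∈ commutator (Δ ⧸ C) :=
    map_mem_commutator (QuotientGroup.mk' C) (hτ.2.2 k.2)
  rw [← map_commutator_of_CE (ξ := MonoidHom.id _) (by simp) ψ (fun x => hψs x)] at h1
  obtain ⟨⟨x, y⟩, hxy, e⟩ := h1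
  have hx := map_mem_commutator (MonoidHom.fst D1 D2) hxy
  have hy := map_mem_commutator (MonoidHom.snd D1 D2) hxy
  rw [hψ, QuotientGroup.eq] at e
  obtain ⟨c, ⟨t, rfl⟩, ht⟩ := e
  have ek : (k : Δ) = x * y * γ t := by
    change ((γ t : τ.ker) : Δ) = _ at ht
    rw [ht]; group
  have e0 : τ x * τ y = 1 := by
    have := k.2
    rw [MonoidHom.mem_ker, ek, map_mul, (γ t).2, mul_one, map_mul] at this
    exact this
  have ex : τ1 x = 1 := by
    have := congrArg Prod.fst e0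
    rw [Prod.fst_mul, (m2 _).1 y.2, mul_one] at this; exact this
  have ey : τ2 y = 1 := by
    have := congrArg Prod.snd e0
    rw [Prod.snd_mul, (m1 _).1 x.2, one_mul] at this; exact this
  obtain ⟨a, ha⟩ := hφ1 ⟨x, ex, hx⟩
  obtain ⟨b, hb⟩ := hφ2 ⟨y, ey, hy⟩
  refine ⟨(a, b, t), Subtype.ext ?_⟩
  rw [ek]
  change ((φ1 a : D1) : Δ) * ((φ2 b : D2) : Δ) * γ t = _
  rw [ha, hb]

theorem hasSchur_prod {A B : Type*} [CommGroup A] [CommGroup B] (hA : HasSchurMultiplier Q₁ A)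
    (hB : HasSchurMultiplier Q₂ B) : HasSchurMultiplier (Q₁ × Q₂) (A × B × TT Q₁ Q₂) := by
  haveI := (finite_of_hasSchur hA).1
  haveI := (finite_of_hasSchur hA).2
  haveI := (finite_of_hasSchur hB).1
  haveI := (finite_of_hasSchur hB).2
  obtain ⟨Γ₁, _, _, σ₁, h₁, ⟨e₁⟩⟩ := hA.1
  obtain ⟨Γ₂, _, _, σ₂, h₂, ⟨e₂⟩⟩ := hB.1
  obtain ⟨β, h3, ⟨e⟩⟩ := prod_lower h₁ h₂
  refine hasSchur_of_card h3 (e.trans (e₁.prodCongr (e₂.prodCongr (MulEquiv.refl _)))) ?_
  intro Δ _ _ τ hτ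
  obtain ⟨f, hf⟩ := prod_upper hA hB hτ
  exact Nat.card_le_card_of_surjective f hf

end Prod

end L
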